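/-
The length-12 ternary code: an explicit parametrisation by six coordinates.
-/
import Cfsg.Prelude.Def_SporadicCombinatorics

set_option autoImplicit false

namespace Cfsg.Agent.Lib.Ternary

open Cfsg

/-- Position of a point of the array. -/
def ix (p : ArrayPt) : ℕ := 3 * p.1.val + p.2.val

/-- A word from a list of coefficients. -/
def ofL (l : List ℕ) : ArrayPt → ZMod 3 := fun p => ((l.getD (ix p) 0 : ℕ) : ZMod 3)

/-- Basis word 0. -/
def b0 : ArrayPt → ZMod 3 := ofL [2, 2, 2, 1, 1, 1, 0, 0, 0, 0, 0, 0]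

/-- Basis word 1. -/
def b1 : ArrayPt → ZMod 3 := ofL [0, 1, 2, 1, 2, 0, 2, 1, 0, 0, 0, 0]

/-- Basis word 2. -/
def b2 : ArrayPt → ZMod 3 := ofL [2, 1, 0, 2, 1, 0, 2, 0, 1, 0, 0, 0]

/-- Basis word 3. -/
def b3 : ArrayPt → ZMod 3 := ofL [2, 1, 1, 1, 0, 0, 1, 0, 0, 1, 0, 0]

/-- Basis word 4. -/
def b4 : ArrayPt → ZMod 3 := ofL [2, 0, 2, 2, 2, 0, 1, 0, 0, 0, 1, 0]

/-- Basis word 5. -/
def b5 : ArrayPt → ZMod 3 := ofL [1, 1, 2, 0, 1, 0, 1, 0, 0, 0, 0, 1]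

/-- The word with given coordinates on the information set. -/
def mk (c : ZMod 3 × ZMod 3 × ZMod 3 × ZMod 3 × ZMod 3 × ZMod 3) : ArrayPt → ZMod 3 :=
  c.1 • b0 + c.2.1 • b1 + c.2.2.1 • b2 + c.2.2.2.1 • b3 + c.2.2.2.2.1 • b4 + c.2.2.2.2.2 • b5

lemma sum_zmod3 (f : ZMod 3 → ZMod 3) : ∑ r : ZMod 3, f r = f 0 + f 1 + f 2 :=
  Fin.sum_univ_three f

lemma mem_tetracode_iff (t : Fin 4 → ZMod 3) :
    t ∈ tetracode ↔ ∃ a b : ZMod 3, t = a • ![0, 1, 1, 1] + b • ![1, 0, 1, 2] := by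
  unfold tetracode
  rw [Submodule.mem_span_pair]
  constructor
  · rintro ⟨a, b, rfl⟩; exact ⟨a, b, rfl⟩
  · rintro ⟨a, b, rfl⟩; exact ⟨a, b, rfl⟩

/-- A word satisfying the column and tetracode conditions lies in the code. -/
lemma mem_of_checks (x : ArrayPt → ZMod 3) (s : ZMod 3)
    (h1 : ∀ i : Fin 4, ∑ r : ZMod 3, x (i, r) = -s)
    (h2 : ∀ a b : ZMod 3, ∑ i : Fin 4, x (i, (a • ![0, 1, 1, 1] + b • ![1, 0, 1, 2] : Fin 4 → ZMod 3) i) = s) :
    x ∈ ternaryGolayCode := by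
  refine ⟨s, h1, fun t ht => ?_⟩
  obtain ⟨a, b, rfl⟩ := (mem_tetracode_iff t).1 ht
  exact h2 a b

lemma b0_mem : b0 ∈ ternaryGolayCode :=
  mem_of_checks b0 0 (by decide +kernel) (by decide +kernel)

lemma b1_mem : b1 ∈ ternaryGolayCode :=
  mem_of_checks b1 0 (by decide +kernel) (by decide +kernel)

lemma b2_mem : b2 ∈ ternaryGolayCode :=
  mem_of_checks b2 0 (by decide +kernel) (by decide +kernel)

lemma b3_mem : b3 ∈ ternaryGolayCode :=
  mem_of_checks b3 2 (by decide +kernel) (by decide +kernel)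

lemma b4_mem : b4 ∈ ternaryGolayCode :=
  mem_of_checks b4 2 (by decide +kernel) (by decide +kernel)

lemma b5_mem : b5 ∈ ternaryGolayCode :=
  mem_of_checks b5 2 (by decide +kernel) (by decide +kernel)

lemma mk_mem (c : ZMod 3 × ZMod 3 × ZMod 3 × ZMod 3 × ZMod 3 × ZMod 3) : mk c ∈ ternaryGolayCode := by
  unfold mk
  have ha := fun {u v} (hu : u ∈ ternaryGolayCode) (hv : v ∈ ternaryGolayCode) => ternaryGolayCode.add_mem hu hv
  have h := fun (a : ZMod 3) {u} (hu : u ∈ ternaryGolayCode) => ternaryGolayCode.smul_mem a hu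
  exact ha (ha (ha (ha (ha (h _ b0_mem) (h _ b1_mem)) (h _ b2_mem)) (h _ b3_mem)) (h _ b4_mem)) (h _ b5_mem)

/-- Values of `mk` on the information set. -/
lemma mk_apply (c : ZMod 3 × ZMod 3 × ZMod 3 × ZMod 3 × ZMod 3 × ZMod 3) (p : ArrayPt) :
    mk c p = c.1 * b0 p + c.2.1 * b1 p + c.2.2.1 * b2 p + c.2.2.2.1 * b3 p + c.2.2.2.2.1 * b4 p
      + c.2.2.2.2.2 * b5 p := rfl

/-- Every word of the code is `mk` of its information coordinates. -/
theorem eq_mk_of_mem {x : ArrayPt → ZMod 3} (hx : x ∈ ternaryGolayCode) :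
    x = mk (x (1, 2), x (2, 1), x (2, 2), x (3, 0), x (3, 1), x (3, 2)) := by
  obtain ⟨s, h1, h2⟩ := hx
  have hc0 := h1 0
  have hc1 := h1 1
  have hc2 := h1 2
  have hc3 := h1 3
  have ht0 := h2 0 (Submodule.zero_mem _)
  have ht1 := h2 ![0, 1, 1, 1] (Submodule.subset_span (by simp))
  have ht2 := h2 ![1, 0, 1, 2] (Submodule.subset_span (by simp))
  rw [sum_zmod3] at hc0 hc1 hc2 hc3
  rw [Fin.sum_univ_four] at ht0 ht1 ht2
  simp only [Pi.zero_apply, Matrix.cons_val_zero, Matrix.cons_val_one, Matrix.cons_val] at ht0 ht1 ht2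
  have h3 : (3 : ZMod 3) = 0 := rfl
  funext ⟨i, r⟩
  fin_cases i <;> fin_cases r
  · change x (0, 0) = mk _ (0, 0)
    rw [mk_apply, show b0 (0, 0) = 2 by decide, show b1 (0, 0) = 0 by decide, show b2 (0, 0) = 2 by decide, show b3 (0, 0) = 2 by decide, show b4 (0, 0) = 2 by decide, show b5 (0, 0) = 1 by decide]
    change x (0, 0) = x (1, 2) * 2 + x (2, 1) * 0 + x (2, 2) * 2 + x (3, 0) * 2 + x (3, 1) * 2 + x (3, 2) * 1
    linear_combination 1 * hc1 + 1 * hc2 + 2 * hc3 + 2 * ht0 + 2 * ht1 + ((-1) * x (0, 0) + (-1) * x (1, 0) + (-1) * x (1, 1) + (-1) * x (1, 2) + (-1) * x (2, 0) + (-1) * x (2, 1) + (-1) * x (2, 2) + (-2) * x (3, 0) + (-2) * x (3, 1) + (-1) * x (3, 2)) * h3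
  · change x (0, 1) = mk _ (0, 1)
    rw [mk_apply, show b0 (0, 1) = 2 by decide, show b1 (0, 1) = 1 by decide, show b2 (0, 1) = 1 by decide, show b3 (0, 1) = 1 by decide, show b4 (0, 1) = 0 by decide, show b5 (0, 1) = 1 by decide]
    change x (0, 1) = x (1, 2) * 2 + x (2, 1) * 1 + x (2, 2) * 1 + x (3, 0) * 1 + x (3, 1) * 0 + x (3, 2) * 1
    linear_combination 1 * hc1 + 2 * hc2 + 1 * hc3 + 1 * ht0 + 2 * ht1 + 1 * ht2 + ((-1) * x (0, 0) + (-1) * x (1, 0) + (-1) * x (1, 1) + (-1) * x (1, 2) + (-1) * x (2, 0) + (-2) * x (2, 1) + (-1) * x (2, 2) + (-1) * x (3, 0) + (-1) * x (3, 1) + (-1) * x (3, 2)) * h3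
  · change x (0, 2) = mk _ (0, 2)
    rw [mk_apply, show b0 (0, 2) = 2 by decide, show b1 (0, 2) = 2 by decide, show b2 (0, 2) = 0 by decide, show b3 (0, 2) = 1 by decide, show b4 (0, 2) = 2 by decide, show b5 (0, 2) = 2 by decide]
    change x (0, 2) = x (1, 2) * 2 + x (2, 1) * 2 + x (2, 2) * 0 + x (3, 0) * 1 + x (3, 1) * 2 + x (3, 2) * 2
    linear_combination 1 * hc0 + 1 * hc1 + 2 * hc3 + 2 * ht1 + 2 * ht2 + ((-1) * x (0, 0) + (-1) * x (0, 1) + (-1) * x (1, 0) + (-1) * x (1, 1) + (-1) * x (1, 2) + (-2) * x (2, 1) + (-1) * x (3, 0) + (-2) * x (3, 1) + (-2) * x (3, 2)) * h3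
  · change x (1, 0) = mk _ (1, 0)
    rw [mk_apply, show b0 (1, 0) = 1 by decide, show b1 (1, 0) = 1 by decide, show b2 (1, 0) = 2 by decide, show b3 (1, 0) = 1 by decide, show b4 (1, 0) = 2 by decide, show b5 (1, 0) = 0 by decide]
    change x (1, 0) = x (1, 2) * 1 + x (2, 1) * 1 + x (2, 2) * 2 + x (3, 0) * 1 + x (3, 1) * 2 + x (3, 2) * 0
    linear_combination 2 * hc1 + 1 * hc2 + 2 * ht0 + 1 * ht1 + ((-1) * x (0, 0) + (-1) * x (1, 0) + (-1) * x (1, 1) + (-1) * x (1, 2) + (-1) * x (2, 0) + (-1) * x (2, 1) + (-1) * x (2, 2) + (-1) * x (3, 0) + (-1) * x (3, 1)) * h3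
  · change x (1, 1) = mk _ (1, 1)
    rw [mk_apply, show b0 (1, 1) = 1 by decide, show b1 (1, 1) = 2 by decide, show b2 (1, 1) = 1 by decide, show b3 (1, 1) = 0 by decide, show b4 (1, 1) = 2 by decide, show b5 (1, 1) = 1 by decide]
    change x (1, 1) = x (1, 2) * 1 + x (2, 1) * 2 + x (2, 2) * 1 + x (3, 0) * 0 + x (3, 1) * 2 + x (3, 2) * 1
    linear_combination 2 * hc1 + 2 * hc2 + 2 * hc3 + 1 * ht0 + 2 * ht1 + ((-1) * x (0, 0) + (-1) * x (1, 0) + (-1) * x (1, 1) + (-1) * x (1, 2) + (-1) * x (2, 0) + (-2) * x (2, 1) + (-1) * x (2, 2) + (-1) * x (3, 0) + (-2) * x (3, 1) + (-1) * x (3, 2) + (-1) * s) * h3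
  · change x (1, 2) = mk _ (1, 2)
    rw [mk_apply, show b0 (1, 2) = 1 by decide, show b1 (1, 2) = 0 by decide, show b2 (1, 2) = 0 by decide, show b3 (1, 2) = 0 by decide, show b4 (1, 2) = 0 by decide, show b5 (1, 2) = 0 by decide]
    change x (1, 2) = x (1, 2) * 1 + x (2, 1) * 0 + x (2, 2) * 0 + x (3, 0) * 0 + x (3, 1) * 0 + x (3, 2) * 0
    ring
  · change x (2, 0) = mk _ (2, 0)
    rw [mk_apply, show b0 (2, 0) = 0 by decide, show b1 (2, 0) = 2 by decide, show b2 (2, 0) = 2 by decide, show b3 (2, 0) = 1 by decide, show b4 (2, 0) = 1 by decide, show b5 (2, 0) = 1 by decide]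
    change x (2, 0) = x (1, 2) * 0 + x (2, 1) * 2 + x (2, 2) * 2 + x (3, 0) * 1 + x (3, 1) * 1 + x (3, 2) * 1
    linear_combination 1 * hc2 + 2 * hc3 + ((-1) * x (2, 1) + (-1) * x (2, 2) + (-1) * x (3, 0) + (-1) * x (3, 1) + (-1) * x (3, 2) + (-1) * s) * h3
  · change x (2, 1) = mk _ (2, 1)
    rw [mk_apply, show b0 (2, 1) = 0 by decide, show b1 (2, 1) = 1 by decide, show b2 (2, 1) = 0 by decide, show b3 (2, 1) = 0 by decide, show b4 (2, 1) = 0 by decide, show b5 (2, 1) = 0 by decide]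
    change x (2, 1) = x (1, 2) * 0 + x (2, 1) * 1 + x (2, 2) * 0 + x (3, 0) * 0 + x (3, 1) * 0 + x (3, 2) * 0
    ring
  · change x (2, 2) = mk _ (2, 2)
    rw [mk_apply, show b0 (2, 2) = 0 by decide, show b1 (2, 2) = 0 by decide, show b2 (2, 2) = 1 by decide, show b3 (2, 2) = 0 by decide, show b4 (2, 2) = 0 by decide, show b5 (2, 2) = 0 by decide]
    change x (2, 2) = x (1, 2) * 0 + x (2, 1) * 0 + x (2, 2) * 1 + x (3, 0) * 0 + x (3, 1) * 0 + x (3, 2) * 0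
    ring
  · change x (3, 0) = mk _ (3, 0)
    rw [mk_apply, show b0 (3, 0) = 0 by decide, show b1 (3, 0) = 0 by decide, show b2 (3, 0) = 0 by decide, show b3 (3, 0) = 1 by decide, show b4 (3, 0) = 0 by decide, show b5 (3, 0) = 0 by decide]
    change x (3, 0) = x (1, 2) * 0 + x (2, 1) * 0 + x (2, 2) * 0 + x (3, 0) * 1 + x (3, 1) * 0 + x (3, 2) * 0
    ring
  · change x (3, 1) = mk _ (3, 1)
    rw [mk_apply, show b0 (3, 1) = 0 by decide, show b1 (3, 1) = 0 by decide, show b2 (3, 1) = 0 by decide, show b3 (3, 1) = 0 by decide, show b4 (3, 1) = 1 by decide, show b5 (3, 1) = 0 by decide]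
    change x (3, 1) = x (1, 2) * 0 + x (2, 1) * 0 + x (2, 2) * 0 + x (3, 0) * 0 + x (3, 1) * 1 + x (3, 2) * 0
    ring
  · change x (3, 2) = mk _ (3, 2)
    rw [mk_apply, show b0 (3, 2) = 0 by decide, show b1 (3, 2) = 0 by decide, show b2 (3, 2) = 0 by decide, show b3 (3, 2) = 0 by decide, show b4 (3, 2) = 0 by decide, show b5 (3, 2) = 1 by decide]
    change x (3, 2) = x (1, 2) * 0 + x (2, 1) * 0 + x (2, 2) * 0 + x (3, 0) * 0 + x (3, 1) * 0 + x (3, 2) * 1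
    ring

end Cfsg.Agent.Lib.Ternary
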