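/-
The length-12 ternary code: cardinality, weights and minimum distance.
-/
import Cfsg.Agent.Lib.Ternary.Code

set_option autoImplicit false

namespace Cfsg.Agent.Lib.Ternary

open Cfsg Finset

/-- Coefficient space. -/
abbrev C6 : Type := ZMod 3 × ZMod 3 × ZMod 3 × ZMod 3 × ZMod 3 × ZMod 3

/-- The information coordinates. -/
def info (x : ArrayPt → ZMod 3) : C6 := (x (1, 2), x (2, 1), x (2, 2), x (3, 0), x (3, 1), x (3, 2))

lemma info_mk : ∀ c : C6, info (mk c) = c := by decide +kernel

lemma mk_injective : Function.Injective mk :=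
  Function.LeftInverse.injective info_mk

lemma mk_info {x : ArrayPt → ZMod 3} (hx : x ∈ ternaryGolayCode) : mk (info x) = x :=
  (eq_mk_of_mem hx).symm

lemma mem_code_iff {x : ArrayPt → ZMod 3} : x ∈ ternaryGolayCode ↔ ∃ c, mk c = x :=
  ⟨fun h => ⟨_, mk_info h⟩, fun ⟨c, hc⟩ => hc ▸ mk_mem c⟩

/-- Parametrisation of the code. -/
noncomputable def codeEquiv : C6 ≃ ternaryGolayCode where
  toFun c := ⟨mk c, mk_mem c⟩
  invFun x := info x.1
  left_inv := info_mk
  right_inv x := Subtype.ext (mk_info x.2)

theorem card_code : Nat.card ternaryGolayCode = 729 := by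
  rw [← Nat.card_congr codeEquiv]
  simp [Nat.card_eq_fintype_card, ZMod.card]

/-- Weight of the word with coefficients `c`. -/
def wt (c : C6) : ℕ := (ternarySupport (mk c)).card

lemma wt_cases : ∀ c : C6, wt c = 0 ∨ wt c = 6 ∨ wt c = 9 ∨ wt c = 12 := by decide +kernel

lemma wt_zero : ∀ c : C6, wt c = 0 → c = 0 := by decide +kernel

theorem weight_cases {x : ArrayPt → ZMod 3} (hx : x ∈ ternaryGolayCode) :
    (ternarySupport x).card = 0 ∨ (ternarySupport x).card = 6 ∨ (ternarySupport x).card = 9 ∨
      (ternarySupport x).card = 12 := by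
  obtain ⟨c, rfl⟩ := mem_code_iff.1 hx
  exact wt_cases c

lemma support_eq_empty {x : ArrayPt → ZMod 3} (h : (ternarySupport x).card = 0) : x = 0 := by
  rw [Finset.card_eq_zero] at h
  funext p
  by_contra hp
  have : p ∈ ternarySupport x := by
    simp only [ternarySupport, mem_filter, mem_univ, true_and]
    exact hp
  simp [h] at this

/-- Minimum distance six. -/
theorem min_weight {x : ArrayPt → ZMod 3} (hx : x ∈ ternaryGolayCode)
    (h : (ternarySupport x).card < 6) : x = 0 := by
  rcases weight_cases hx with h0 | h0 | h0 | h0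
  · exact support_eq_empty h0
  all_goals omega

/-- Counting words of a given weight. -/
theorem ncard_weight (n : ℕ) :
    {x : ArrayPt → ZMod 3 | x ∈ ternaryGolayCode ∧ (ternarySupport x).card = n}.ncard
      = (univ.filter (fun c : C6 => wt c = n)).card := by
  have : {x : ArrayPt → ZMod 3 | x ∈ ternaryGolayCode ∧ (ternarySupport x).card = n}
      = mk '' (↑(univ.filter (fun c : C6 => wt c = n)) : Set C6) := by
    ext x
    simp only [Set.mem_ofPred_eq, Set.mem_image, mem_coe, mem_filter, mem_univ, true_and]
    constructor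
    · rintro ⟨hx, h⟩
      exact ⟨info x, by unfold wt; rw [mk_info hx]; exact h, mk_info hx⟩
    · rintro ⟨c, hc, rfl⟩
      exact ⟨mk_mem c, hc⟩
  rw [this, Set.ncard_image_of_injective _ mk_injective, Set.ncard_coe_finset]

lemma count6 : (univ.filter (fun c : C6 => wt c = 6)).card = 264 := by decide +kernel
lemma count9 : (univ.filter (fun c : C6 => wt c = 9)).card = 440 := by decide +kernel
lemma count12 : (univ.filter (fun c : C6 => wt c = 12)).card = 24 := by decide +kernel


end Cfsg.Agent.Lib.Ternary
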