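/-
The length-12 ternary code: the hexads form a Steiner system S(5,6,12).
-/
import Cfsg.Agent.Lib.Ternary.Count

set_option autoImplicit false

namespace Cfsg.Agent.Lib.Ternary

open Cfsg Finset

/-- The hexads. -/
def Hx : Set (Finset ArrayPt) := {h | ∃ x ∈ ternaryGolayCode, ternarySupport x = h ∧ h.card = 6}

lemma mem_support {x : ArrayPt → ZMod 3} {p : ArrayPt} : p ∈ ternarySupport x ↔ x p ≠ 0 := by
  simp [ternarySupport]

lemma zmod3_cases : ∀ a b : ZMod 3, a ≠ 0 → b ≠ 0 → a = b ∨ a = -b := by decide

lemma support_sub_card_le {x y : ArrayPt → ZMod 3} {A : Finset ArrayPt} (hA : ∀ p ∈ A, x p = y p) :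
    (ternarySupport (x - y)) ⊆ (ternarySupport x ∪ ternarySupport y) \ A := by
  intro p hp
  rw [mem_support] at hp
  rw [mem_sdiff, mem_union, mem_support, mem_support]
  constructor
  · by_contra h
    push Not at h
    apply hp
    simp [h.1, h.2]
  · intro hpA
    apply hp
    simp [hA p hpA]

/-- Two words of weight six whose supports share five points are equal up to sign. -/
theorem eq_or_neg_of_five {x y : ArrayPt → ZMod 3} (hx : x ∈ ternaryGolayCode)
    (hy : y ∈ ternaryGolayCode) (hx6 : (ternarySupport x).card = 6)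
    (hy6 : (ternarySupport y).card = 6) {s : Finset ArrayPt} (hs5 : 5 ≤ s.card)
    (hsx : s ⊆ ternarySupport x) (hsy : s ⊆ ternarySupport y) : x = y ∨ x = -y := by
  classical
  have hu : (ternarySupport x ∪ ternarySupport y).card ≤ 7 := by
    have h1 := Finset.card_union_add_card_inter (ternarySupport x) (ternarySupport y)
    have h2 : s.card ≤ (ternarySupport x ∩ ternarySupport y).card :=
      card_le_card (subset_inter hsx hsy)
    omega
  set A := s.filter (fun p => x p = y p) with hA
  set D := s.filter (fun p => x p = -y p) with hD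
  have hAD : s ⊆ A ∪ D := by
    intro p hp
    rw [mem_union, hA, hD, mem_filter, mem_filter]
    rcases zmod3_cases (x p) (y p) (mem_support.1 (hsx hp)) (mem_support.1 (hsy hp)) with h | h
    · exact Or.inl ⟨hp, h⟩
    · exact Or.inr ⟨hp, h⟩
  have hcard : 5 ≤ A.card + D.card :=
    hs5.trans ((card_le_card hAD).trans (card_union_le _ _))
  have hAs : A ⊆ ternarySupport x ∪ ternarySupport y :=
    (filter_subset _ _).trans (hsx.trans subset_union_left)
  have hDs : D ⊆ ternarySupport x ∪ ternarySupport y :=
    (filter_subset _ _).trans (hsx.trans subset_union_left)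
  by_cases h3 : 3 ≤ A.card
  · left
    have h1 : x - y ∈ ternaryGolayCode := ternaryGolayCode.sub_mem hx hy
    have h2 := support_sub_card_le (x := x) (y := y) (A := A)
      (fun p hp => (mem_filter.1 hp).2)
    have h4 := card_le_card h2
    rw [card_sdiff_of_subset hAs] at h4
    have := min_weight h1 (by omega)
    exact sub_eq_zero.1 this
  · right
    have h1 : x - (-y) ∈ ternaryGolayCode := ternaryGolayCode.sub_mem hx (ternaryGolayCode.neg_mem hy)
    have hsy' : ternarySupport (-y) = ternarySupport y := by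
      ext p; simp [mem_support]
    have h2 := support_sub_card_le (x := x) (y := -y) (A := D)
      (fun p hp => by simpa using (mem_filter.1 hp).2)
    have h4 := card_le_card h2
    rw [hsy', card_sdiff_of_subset hDs] at h4
    have := min_weight h1 (by omega)
    exact sub_eq_zero.1 this

lemma support_neg (y : ArrayPt → ZMod 3) : ternarySupport (-y) = ternarySupport y := by
  ext p; simp [mem_support]

/-- Two hexads sharing five points coincide. -/
theorem hexad_unique {h k s : Finset ArrayPt} (hh : h ∈ Hx) (hk : k ∈ Hx) (hs : s.card = 5)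
    (hsh : s ⊆ h) (hsk : s ⊆ k) : h = k := by
  obtain ⟨x, hx, rfl, hx6⟩ := hh
  obtain ⟨y, hy, rfl, hy6⟩ := hk
  rcases eq_or_neg_of_five hx hy hx6 hy6 hs.ge hsh hsk with h | h
  · rw [h]
  · rw [h, support_neg]

/-- The weight-six words, as a finset of coefficients. -/
def W6 : Finset C6 := univ.filter (fun c : C6 => wt c = 6)

lemma card_W6 : W6.card = 264 := count6

/-- Hexads as a finset, image of the weight-six words. -/
noncomputable def HF : Finset (Finset ArrayPt) := W6.image (fun c => ternarySupport (mk c))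

lemma mem_HF {h : Finset ArrayPt} : h ∈ HF ↔ h ∈ Hx := by
  unfold HF W6
  simp only [mem_image, mem_filter, mem_univ, true_and]
  constructor
  · rintro ⟨c, hc, rfl⟩
    exact ⟨mk c, mk_mem c, rfl, hc⟩
  · rintro ⟨x, hx, rfl, h6⟩
    obtain ⟨c, rfl⟩ := mem_code_iff.1 hx
    exact ⟨c, h6, rfl⟩

lemma neg_mk (c : C6) : ∃ d : C6, mk d = - mk c :=
  mem_code_iff.1 (ternaryGolayCode.neg_mem (mk_mem c))

lemma mk_ne_neg_of_wt (c : C6) (h : wt c = 6) : mk c ≠ - mk c := by
  intro hc
  have h0 : mk c = 0 := by
    funext p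
    have : mk c p = - mk c p := congrFun hc p
    have key : ∀ a : ZMod 3, a = -a → a = 0 := by decide
    exact key _ this
  have h1 : wt c = 0 := by
    unfold wt
    rw [h0]
    simp [ternarySupport]
  omega

/-- There are exactly 132 hexads. -/
theorem card_HF : HF.card = 132 := by
  classical
  have hmaps : ∀ c ∈ W6, ternarySupport (mk c) ∈ HF := fun c hc => mem_image_of_mem _ hc
  have h1 := Finset.card_eq_sum_card_fiberwise hmaps
  have hfib : ∀ h ∈ HF, (W6.filter (fun c => ternarySupport (mk c) = h)).card = 2 := by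
    intro h hh
    obtain ⟨c, hc, rfl⟩ := mem_image.1 hh
    obtain ⟨d, hd⟩ := neg_mk c
    have hcd : c ≠ d := by
      rintro rfl
      exact mk_ne_neg_of_wt c (mem_filter.1 hc).2 hd
    rw [Finset.card_eq_two]
    refine ⟨c, d, hcd, ?_⟩
    ext e
    simp only [mem_filter, mem_insert, mem_singleton]
    constructor
    · rintro ⟨he, hs⟩
      have hc6 := (mem_filter.1 hc).2
      have he6 := (mem_filter.1 he).2
      have hc6' : (ternarySupport (mk c)).card = 6 := hc6
      have he6' : (ternarySupport (mk e)).card = 6 := he6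
      rcases eq_or_neg_of_five (mk_mem e) (mk_mem c) he6' hc6' (s := ternarySupport (mk e))
        (by omega) (subset_refl _) (by rw [hs]) with h | h
      · exact Or.inl (mk_injective h)
      · exact Or.inr (mk_injective (h.trans hd.symm))
    · have hsd : ternarySupport (mk d) = ternarySupport (mk c) := by
        rw [hd, support_neg]
      rintro (rfl | rfl)
      · exact ⟨hc, rfl⟩
      · refine ⟨?_, hsd⟩
        unfold W6
        rw [mem_filter]
        refine ⟨mem_univ _, ?_⟩
        unfold wt
        rw [hsd]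
        exact (mem_filter.1 hc).2
  rw [Finset.sum_congr rfl hfib, sum_const, card_W6, smul_eq_mul] at h1
  omega

/-- Counting gives existence. -/
lemma exists_of_count {F : Finset (Finset ArrayPt)} (hF : F.card = 132)
    (h6 : ∀ h ∈ F, h.card = 6)
    (hu : ∀ h ∈ F, ∀ k ∈ F, ∀ s : Finset ArrayPt, s.card = 5 → s ⊆ h → s ⊆ k → h = k)
    (s : Finset ArrayPt) (hs : s.card = 5) : ∃ h ∈ F, s ⊆ h := by
  classical
  have hdisj : ((F : Set (Finset ArrayPt))).PairwiseDisjoint (fun h => powersetCard 5 h) := by
    intro h hh k hk hne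
    rw [Function.onFun, disjoint_left]
    intro t ht ht'
    exact hne (hu h hh k hk t (mem_powersetCard.1 ht).2
      (mem_powersetCard.1 ht).1 (mem_powersetCard.1 ht').1)
  have hcard : (F.biUnion (fun h => powersetCard 5 h)).card = 792 := by
    rw [card_biUnion hdisj]
    have : ∀ h ∈ F, (powersetCard 5 h).card = 6 := by
      intro h hh
      rw [card_powersetCard, h6 h hh]
      decide
    rw [Finset.sum_congr rfl this, sum_const, hF, smul_eq_mul]
  have huniv : F.biUnion (fun h => powersetCard 5 h) = powersetCard 5 (univ : Finset ArrayPt) := by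
    apply Finset.eq_of_subset_of_card_le
    · intro t ht
      obtain ⟨h, -, ht⟩ := mem_biUnion.1 ht
      exact mem_powersetCard.2 ⟨subset_univ _, (mem_powersetCard.1 ht).2⟩
    · rw [hcard, card_powersetCard, card_univ]
      have : Fintype.card ArrayPt = 12 := by
        simp [ZMod.card]
      rw [this]
      have h12 : Nat.choose 12 5 = 792 := by decide
      rw [h12]
  have hm : s ∈ powersetCard 5 (univ : Finset ArrayPt) := mem_powersetCard.2 ⟨subset_univ _, hs⟩
  rw [← huniv] at hm
  obtain ⟨h, hh, hsh⟩ := mem_biUnion.1 hm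
  exact ⟨h, hh, (mem_powersetCard.1 hsh).1⟩

/-- The Steiner property. -/
theorem hexads_steiner : IsSteinerSystem 5 6 Hx := by
  classical
  refine ⟨fun b ⟨_, _, _, h6⟩ => h6, fun s hs => ?_⟩
  suffices hex : ∃ b ∈ Hx, s ⊆ b by
    obtain ⟨b, hb, hsb⟩ := hex
    exact ⟨b, ⟨hb, hsb⟩, fun k hk => hexad_unique hk.1 hb hs hk.2 hsb⟩
  have := exists_of_count card_HF
    (fun h hh => by
      obtain ⟨_, _, _, h6⟩ := mem_HF.1 hh
      exact h6)
    (fun h hh k hk t ht h1 h2 => hexad_unique (mem_HF.1 hh) (mem_HF.1 hk) ht h1 h2) s hs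
  obtain ⟨h, hh, hsh⟩ := this
  exact ⟨h, mem_HF.1 hh, hsh⟩

theorem ncard_Hx : Hx.ncard = 132 := by
  have : Hx = (HF : Set (Finset ArrayPt)) := by
    ext h
    exact mem_HF.symm
  rw [this, Set.ncard_coe_finset, card_HF]

end Cfsg.Agent.Lib.Ternary
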