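/-
Monomial automorphisms of the length-12 ternary code.
-/
import Cfsg.Agent.Lib.Ternary.Hexad
import Cfsg.Agent.S0425
import Cfsg.Agent.Lib.SteinerU.Bridge

set_option autoImplicit false
set_option maxRecDepth 100000

namespace Cfsg.Agent.Lib.Ternary

open Cfsg Finset
open scoped Pointwise

/-- A point from its position. -/
def ofIx (n : ℕ) : ArrayPt := (⟨(n / 3) % 4, Nat.mod_lt _ (by norm_num)⟩, ((n % 3 : ℕ) : ZMod 3))

theorem ofIx_ix : ∀ p : ArrayPt, ofIx (ix p) = p := by decide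

theorem ix_lt : ∀ p : ArrayPt, ix p < 12 := by decide

theorem ix_ofIx : ∀ n : Fin 12, ix (ofIx n) = n := by decide

/-- The inverse permutation given by a list. -/
def pInv (l : List ℕ) (p : ArrayPt) : ArrayPt := ofIx (l.getD (ix p) 0)

/-- Signs from a mask. -/
def sgnM (s : ℕ) (p : ArrayPt) : (ZMod 3)ˣ := if s.testBit (ix p) = true then -1 else 1

/-- The monomial action given by data. -/
def mAct (l : List ℕ) (s : ℕ) (x : ArrayPt → ZMod 3) (p : ArrayPt) : ZMod 3 :=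
  (sgnM s p : ZMod 3) * x (pInv l p)

/-- The check for a piece of data. -/
def entryOK (e : List ℕ × ℕ) : Prop :=
  Function.Injective (pInv e.1) ∧ (mk (info (mAct e.1 e.2 b0)) = mAct e.1 e.2 b0) ∧
    (mk (info (mAct e.1 e.2 b1)) = mAct e.1 e.2 b1) ∧ (mk (info (mAct e.1 e.2 b2)) = mAct e.1 e.2 b2) ∧
    (mk (info (mAct e.1 e.2 b3)) = mAct e.1 e.2 b3) ∧ (mk (info (mAct e.1 e.2 b4)) = mAct e.1 e.2 b4) ∧
    (mk (info (mAct e.1 e.2 b5)) = mAct e.1 e.2 b5)

instance (e : List ℕ × ℕ) : Decidable (entryOK e) := by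
  unfold entryOK
  infer_instance

/-- The chain of data. -/
def levs : List (List (List ℕ × ℕ)) := [
  [([0, 1, 2, 3, 4, 5, 6, 7, 8, 9, 10, 11], 0), ([1, 0, 2, 3, 4, 5, 11, 9, 10, 7, 8, 6], 0), ([1, 2, 0, 3, 4, 5, 7, 8, 6, 11, 9, 10], 0), ([1, 2, 3, 0, 4, 5, 8, 7, 9, 10, 6, 11], 1331), ([1, 2, 3, 4, 0, 5, 6, 10, 11, 7, 8, 9], 1940), ([1, 2, 3, 4, 5, 0, 7, 9, 8, 6, 11, 10], 667), ([1, 2, 3, 4, 7, 6, 0, 8, 10, 5, 9, 11], 1581), ([1, 2, 3, 4, 9, 10, 11, 0, 7, 8, 6, 5], 993), ([1, 2, 3, 4, 8, 11, 9, 6, 0, 10, 5, 7], 1224), ([1, 2, 3, 4, 6, 7, 5, 11, 9, 0, 10, 8], 349), ([1, 2, 3, 4, 11, 8, 10, 7, 5, 9, 0, 6], 1271), ([1, 2, 3, 4, 10, 9, 8, 5, 6, 11, 7, 0], 430)],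
  [([0, 1, 2, 3, 4, 5, 6, 7, 8, 9, 10, 11], 0), ([0, 2, 1, 3, 4, 5, 9, 10, 11, 6, 7, 8], 0), ([0, 2, 3, 1, 4, 5, 10, 9, 7, 8, 11, 6], 1331), ([0, 2, 3, 4, 1, 5, 11, 8, 6, 9, 10, 7], 1940), ([0, 2, 3, 4, 5, 1, 9, 7, 10, 11, 6, 8], 667), ([0, 2, 3, 4, 9, 11, 1, 10, 8, 5, 7, 6], 1581), ([0, 2, 3, 4, 7, 8, 6, 1, 9, 10, 11, 5], 993), ([0, 2, 3, 4, 10, 6, 7, 11, 1, 8, 5, 9], 1224), ([0, 2, 3, 4, 11, 9, 5, 6, 7, 1, 8, 10], 349), ([0, 2, 3, 4, 6, 10, 8, 9, 5, 7, 1, 11], 1271), ([0, 2, 3, 4, 8, 7, 10, 5, 11, 6, 9, 1], 430)],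
  [([0, 1, 2, 3, 4, 5, 6, 7, 8, 9, 10, 11], 0), ([0, 1, 3, 2, 4, 5, 7, 6, 10, 11, 8, 9], 1331), ([0, 1, 3, 4, 2, 5, 8, 11, 9, 6, 7, 10], 1940), ([0, 1, 3, 4, 5, 2, 6, 10, 7, 8, 9, 11], 667), ([0, 1, 3, 4, 6, 8, 2, 7, 11, 5, 10, 9], 1581), ([0, 1, 3, 4, 10, 11, 9, 2, 6, 7, 8, 5], 993), ([0, 1, 3, 4, 7, 9, 10, 8, 2, 11, 5, 6], 1224), ([0, 1, 3, 4, 8, 6, 5, 9, 10, 2, 11, 7], 349), ([0, 1, 3, 4, 9, 7, 11, 6, 5, 10, 2, 8], 1271), ([0, 1, 3, 4, 11, 10, 7, 5, 8, 9, 6, 2], 430)],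
  [([0, 1, 2, 3, 4, 5, 6, 7, 8, 9, 10, 11], 0), ([0, 1, 2, 4, 3, 5, 10, 9, 11, 7, 6, 8], 0), ([0, 1, 2, 4, 5, 3, 7, 8, 6, 10, 11, 9], 0), ([0, 1, 2, 4, 7, 10, 3, 6, 9, 5, 8, 11], 6), ([0, 1, 2, 4, 8, 9, 11, 3, 7, 6, 10, 5], 5), ([0, 1, 2, 4, 6, 11, 8, 10, 3, 9, 5, 7], 3), ([0, 1, 2, 4, 10, 7, 5, 11, 8, 3, 9, 6], 6), ([0, 1, 2, 4, 11, 6, 9, 7, 5, 8, 3, 10], 3), ([0, 1, 2, 4, 9, 8, 6, 5, 10, 11, 7, 3], 5)],
  [([0, 1, 2, 3, 4, 5, 6, 7, 8, 9, 10, 11], 0), ([0, 1, 2, 3, 5, 4, 9, 11, 10, 6, 8, 7], 0), ([0, 1, 2, 3, 9, 6, 4, 10, 7, 5, 11, 8], 6), ([0, 1, 2, 3, 11, 7, 8, 4, 9, 10, 6, 5], 5), ([0, 1, 2, 3, 10, 8, 11, 6, 4, 7, 5, 9], 3), ([0, 1, 2, 3, 6, 9, 5, 8, 11, 4, 7, 10], 6), ([0, 1, 2, 3, 8, 10, 7, 9, 5, 11, 4, 6], 3), ([0, 1, 2, 3, 7, 11, 10, 5, 6, 8, 9, 4], 5)]]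

theorem levs_ok : levs.all (fun L => L.all fun e => decide (entryOK e)) = true := by decide +kernel

theorem chain_ok : (List.range 5).all (fun k => (List.range 12).all fun n =>
    Nat.blt n k || (levs.getD k []).any fun e => Nat.beq (e.1.getD n 0) k &&
      (List.range k).all fun j => Nat.beq (e.1.getD j 0) j) = true := by decide +kernel

/-- Group of images. -/
def HT : Subgroup (Equiv.Perm ArrayPt) where
  carrier := {σ | ∃ c : ArrayPt → (ZMod 3)ˣ, ∀ x ∈ ternaryGolayCode, monomialMap σ c x ∈ ternaryGolayCode}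
  mul_mem' := by
    rintro σ τ ⟨c, hc⟩ ⟨d, hd⟩
    refine ⟨fun i => c i * d (σ.symm i), fun x hx => ?_⟩
    have e : monomialMap (σ * τ) (fun i => c i * d (σ.symm i)) x = monomialMap σ c (monomialMap τ d x) := by
      funext i
      simp only [monomialMap, Units.val_mul, mul_assoc]
      rfl
    rw [e]
    exact hc _ (hd _ hx)
  one_mem' := by
    refine ⟨1, fun x hx => ?_⟩
    have e : monomialMap (1 : Equiv.Perm ArrayPt) (1 : ArrayPt → (ZMod 3)ˣ) x = x := by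
      funext i
      have e1 : (1 : Equiv.Perm ArrayPt).symm i = i := rfl
      simp only [monomialMap, e1, Pi.one_apply, Units.val_one, one_mul]
    rw [e]
    exact hx
  inv_mem' := by
    rintro σ ⟨c, hc⟩
    refine ⟨fun i => (c (σ i))⁻¹, fun y hy => ?_⟩
    have hinj : Function.Injective (monomialMap σ c) := by
      intro x y h
      funext j
      have h1 := congrFun h (σ j)
      simp only [monomialMap, Equiv.symm_apply_apply] at h1
      exact mul_left_cancel₀ (c (σ j)).ne_zero h1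
    let f : ternaryGolayCode → ternaryGolayCode := fun x => ⟨monomialMap σ c x.1, hc x.1 x.2⟩
    have hf : Function.Injective f := fun a b hab => Subtype.ext (hinj (congrArg Subtype.val hab))
    obtain ⟨x, hx⟩ := (Finite.injective_iff_surjective.1 hf) ⟨y, hy⟩
    have hxy : monomialMap σ c x.1 = y := congrArg Subtype.val hx
    rw [← hxy]
    have e : monomialMap σ⁻¹ (fun i => (c (σ i))⁻¹) (monomialMap σ c x.1) = x.1 := by
      funext i
      simp only [monomialMap]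
      have e1 : σ⁻¹.symm i = σ i := rfl
      have h5 : (((c (σ i))⁻¹ : (ZMod 3)ˣ) : ZMod 3) * (c (σ i) : ZMod 3) = 1 := by
        rw [← Units.val_mul, inv_mul_cancel, Units.val_one]
      rw [e1, Equiv.symm_apply_apply, ← mul_assoc, h5, one_mul]
    rw [e]
    exact x.2

theorem mAct_mem {e : List ℕ × ℕ} (he : entryOK e) {x : ArrayPt → ZMod 3} (hx : x ∈ ternaryGolayCode) :
    mAct e.1 e.2 x ∈ ternaryGolayCode := by
  obtain ⟨-, h0, h1, h2, h3, h4, h5⟩ := he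
  have hk : ∀ w, mk (info (mAct e.1 e.2 w)) = mAct e.1 e.2 w → mAct e.1 e.2 w ∈ ternaryGolayCode :=
    fun w hw => hw ▸ mk_mem _
  have hadd : ∀ u v, mAct e.1 e.2 (u + v) = mAct e.1 e.2 u + mAct e.1 e.2 v := by
    intro u v
    funext p
    simp only [mAct, Pi.add_apply, mul_add]
  have hsm : ∀ (a : ZMod 3) u, mAct e.1 e.2 (a • u) = a • mAct e.1 e.2 u := by
    intro a u
    funext p
    simp only [mAct, Pi.smul_apply, smul_eq_mul]
    ring
  rw [← mk_info hx, mk]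
  simp only [hadd, hsm]
  have ha := fun {u v} (hu : u ∈ ternaryGolayCode) (hv : v ∈ ternaryGolayCode) => ternaryGolayCode.add_mem hu hv
  have h := fun (a : ZMod 3) {u} (hu : u ∈ ternaryGolayCode) => ternaryGolayCode.smul_mem a hu
  exact ha (ha (ha (ha (ha (h _ (hk _ h0)) (h _ (hk _ h1))) (h _ (hk _ h2))) (h _ (hk _ h3))) (h _ (hk _ h4)))
    (h _ (hk _ h5))

/-- The element of the group given by data. -/
theorem entry_elt {e : List ℕ × ℕ} (he : entryOK e) :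
    ∃ g ∈ HT, ∀ p, g.symm p = pInv e.1 p := by
  have hb : Function.Bijective (pInv e.1) := Finite.injective_iff_bijective.1 he.1
  let g : Equiv.Perm ArrayPt := (Equiv.ofBijective _ hb).symm
  refine ⟨g, ⟨sgnM e.2, fun x hx => ?_⟩, fun p => rfl⟩
  exact mAct_mem he hx

/-- Base points. -/
def bs (k : ℕ) : ArrayPt := ofIx k

theorem chain_step (k : ℕ) (hk : k < 5) (y : ArrayPt) (hy : ∀ j < k, y ≠ bs j) :
    ∃ g ∈ HT, (∀ j < k, g (bs j) = bs j) ∧ g (bs k) = y := by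
  have hn : k ≤ ix y := by
    by_contra hlt
    push Not at hlt
    apply hy (ix y) hlt
    exact (ofIx_ix y).symm
  have h1 := List.all_eq_true.1 (List.all_eq_true.1 chain_ok k (List.mem_range.2 hk)) (ix y)
    (List.mem_range.2 (ix_lt y))
  rcases Bool.or_eq_true _ _ ▸ h1 with h2 | h2
  · rw [Nat.blt_eq] at h2
    omega
  · obtain ⟨e, he, h3⟩ := List.any_eq_true.1 h2
    rw [Bool.and_eq_true] at h3
    obtain ⟨h4, h5⟩ := h3
    have hlev : levs.getD k [] ∈ levs := by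
      have hlen : levs.length = 5 := rfl
      rw [List.getD_eq_getElem _ _ (by rw [hlen]; exact hk)]
      exact List.getElem_mem _
    have hok : entryOK e := of_decide_eq_true
      (List.all_eq_true.1 (List.all_eq_true.1 levs_ok _ hlev) e he)
    obtain ⟨g, hg, hgs⟩ := entry_elt hok
    refine ⟨g, hg, ?_, ?_⟩
    · intro j hj
      rw [eq_comm, ← Equiv.symm_apply_eq, hgs, pInv, bs]
      have hj12 : j < 12 := by omega
      rw [show ix (ofIx j) = j from ix_ofIx ⟨j, hj12⟩]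
      rw [Nat.eq_of_beq_eq_true (List.all_eq_true.1 h5 j (List.mem_range.2 hj))]
    · rw [eq_comm, ← Equiv.symm_apply_eq, hgs, pInv, bs, Nat.eq_of_beq_eq_true h4]

/-- Transitivity on tuples. -/
theorem chain_trans (m : ℕ) (hm : m ≤ 5) (y : ℕ → ArrayPt)
    (hy : ∀ i < m, ∀ j < m, i ≠ j → y i ≠ y j) : ∃ g ∈ HT, ∀ i < m, g (bs i) = y i := by
  induction m with
  | zero => exact ⟨1, HT.one_mem, fun i hi => absurd hi (Nat.not_lt_zero i)⟩
  | succ m ih =>
    obtain ⟨g, hg, hgy⟩ := ih (by omega) (fun i hi j hj => hy i (by omega) j (by omega))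
    obtain ⟨h, hh, h1, h2⟩ := chain_step m (by omega) (g.symm (y m)) (by
      intro j hj e
      rw [Equiv.symm_apply_eq, hgy j hj] at e
      exact hy m (by omega) j (by omega) (by omega) e)
    refine ⟨g * h, HT.mul_mem hg hh, ?_⟩
    intro i hi
    rcases Nat.lt_succ_iff_lt_or_eq.1 hi with hi | rfl
    · rw [Equiv.Perm.mul_apply, h1 i hi, hgy i hi]
    · rw [Equiv.Perm.mul_apply, h2, Equiv.apply_symm_apply]

theorem card_arr : Fintype.card ArrayPt = 12 := by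
  simp [ZMod.card]

theorem HT_le : HT ≤ setSystemAut Hx := by
  rintro σ ⟨c, hc⟩
  apply SteinerU.mem_aut_iff_forall.2
  rintro _ ⟨x, hx, rfl, h6⟩
  refine ⟨monomialMap σ c x, hc x hx, ?_, ?_⟩
  · ext p
    rw [mem_support, Finset.mem_smul_finset]
    constructor
    · intro h1
      refine ⟨σ.symm p, ?_, by simp⟩
      rw [mem_support]
      intro h2
      apply h1
      simp [monomialMap, h2]
    · rintro ⟨q, hq, rfl⟩
      rw [mem_support] at hq
      simp only [monomialMap, Equiv.Perm.smul_def, Equiv.symm_apply_apply]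
      exact mul_ne_zero (c _).ne_zero hq
  · rw [Finset.card_smul_finset]
    exact h6

theorem bs_ne : ∀ i < 5, ∀ j < 5, i ≠ j → bs i ≠ bs j := by decide

theorem le_HT : setSystemAut Hx ≤ HT := by
  intro σ hσ
  let x : Fin 5 ↪ ArrayPt := ⟨fun i => bs i, fun a b h => by
    by_contra hne
    exact bs_ne a a.2 b b.2 (fun e => hne (Fin.ext e)) h⟩
  obtain ⟨g, hg, hgy⟩ := chain_trans 5 le_rfl (fun i => σ (bs i))
    (fun i hi j hj hij e => bs_ne i hi j hj hij (σ.injective e))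
  have h3 := (Cfsg.Agent.S0425.result card_arr hexads_steiner).2.2 x
  have hgA : g ∈ setSystemAut Hx := HT_le hg
  let τ : ↥(setSystemAut Hx) := ⟨g⁻¹ * σ, mul_mem (inv_mem hgA) hσ⟩
  have hτ : τ ∈ MulAction.stabilizer (setSystemAut Hx) x := by
    rw [MulAction.mem_stabilizer_iff]
    apply Function.Embedding.ext
    intro i
    show (g⁻¹ * σ) (bs i) = bs i
    rw [Equiv.Perm.mul_apply, ← hgy i i.2]
    exact g.symm_apply_apply _
  rw [h3, Subgroup.mem_bot] at hτ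
  have h4 : g⁻¹ * σ = 1 := congrArg Subtype.val hτ
  have h5 : g = σ := inv_mul_eq_one.1 h4
  rw [← h5]
  exact hg

theorem HT_eq : HT = setSystemAut Hx := le_antisymm HT_le le_HT

theorem card_HT : Nat.card HT = 95040 := by
  rw [HT_eq]
  exact (Cfsg.Agent.S0425.result card_arr hexads_steiner).1.2

theorem scalar_units (c : ArrayPt → (ZMod 3)ˣ)
    (h : ∀ x ∈ ternaryGolayCode, monomialMap 1 c x ∈ ternaryGolayCode) : ∀ i j, c i = c j := by
  intro i j
  by_cases hij : i = j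
  · rw [hij]
  obtain ⟨s, hs1, -, hs3⟩ := Finset.exists_subsuperset_card_eq (s := {i, j}) (t := univ) (n := 5)
    (Finset.subset_univ _) (by rw [Finset.card_pair hij]; norm_num) (by rw [Finset.card_univ, card_arr]; norm_num)
  obtain ⟨h', ⟨hh, hsh⟩, -⟩ := hexads_steiner.2 s hs3
  obtain ⟨x, hx, rfl, h6⟩ := hh
  have hval : ∀ p, monomialMap 1 c x p = (c p : ZMod 3) * x p := fun p => rfl
  have hsupp : ternarySupport (monomialMap 1 c x) = ternarySupport x := by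
    ext p
    rw [mem_support, mem_support, hval]
    constructor
    · intro h1 h2
      apply h1
      rw [h2, mul_zero]
    · intro h1
      exact mul_ne_zero (c p).ne_zero h1
  have hi : i ∈ ternarySupport x := hsh (hs1 (by simp))
  have hj : j ∈ ternarySupport x := hsh (hs1 (by simp))
  have hi' := mem_support.1 hi
  have hj' := mem_support.1 hj
  apply Units.ext
  rcases eq_or_neg_of_five (h x hx) hx (hsupp ▸ h6) h6 hs3.ge (hsupp ▸ hsh) hsh with e | e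
  · have h1 := congrFun e i
    have h2 := congrFun e j
    rw [hval] at h1 h2
    have h3 : (c i : ZMod 3) = 1 := mul_right_cancel₀ hi' (by rw [h1, one_mul])
    have h4 : (c j : ZMod 3) = 1 := mul_right_cancel₀ hj' (by rw [h2, one_mul])
    rw [h3, h4]
  · have h1 := congrFun e i
    have h2 := congrFun e j
    rw [hval, Pi.neg_apply] at h1 h2
    have h3 : (c i : ZMod 3) = -1 := mul_right_cancel₀ hi' (by rw [h1]; ring)
    have h4 : (c j : ZMod 3) = -1 := mul_right_cancel₀ hj' (by rw [h2]; ring)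
    rw [h3, h4]

theorem mono_surjT {σ : Equiv.Perm ArrayPt} {c : ArrayPt → (ZMod 3)ˣ}
    (hP : ∀ x ∈ ternaryGolayCode, monomialMap σ c x ∈ ternaryGolayCode) :
    ∀ y ∈ ternaryGolayCode, ∃ x ∈ ternaryGolayCode, monomialMap σ c x = y := by
  intro y hy
  have hinj : Function.Injective (monomialMap σ c) := by
    intro x y h
    funext j
    have h1 := congrFun h (σ j)
    simp only [monomialMap, Equiv.symm_apply_apply] at h1
    exact mul_left_cancel₀ (c (σ j)).ne_zero h1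
  let f : ternaryGolayCode → ternaryGolayCode := fun x => ⟨monomialMap σ c x.1, hP x.1 x.2⟩
  have hf : Function.Injective f := fun a b hab => Subtype.ext (hinj (congrArg Subtype.val hab))
  obtain ⟨x, hx⟩ := (Finite.injective_iff_surjective.1 hf) ⟨y, hy⟩
  exact ⟨x.1, x.2, congrArg Subtype.val hx⟩

/-- The count. -/
theorem card_monoT :
    Nat.card {f : Equiv.Perm ArrayPt × (ArrayPt → (ZMod 3)ˣ) //
      ∀ x ∈ ternaryGolayCode, monomialMap f.1 f.2 x ∈ ternaryGolayCode} = 190080 := by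
  have hA : ∀ σ : HT, ∃ c : ArrayPt → (ZMod 3)ˣ,
      ∀ x ∈ ternaryGolayCode, monomialMap σ.1 c x ∈ ternaryGolayCode := fun σ => σ.2
  choose c0 hc0 using hA
  have hsc : ∀ (l : (ZMod 3)ˣ) (σ : Equiv.Perm ArrayPt) (c : ArrayPt → (ZMod 3)ˣ) (x : ArrayPt → ZMod 3),
      monomialMap σ (fun i => l * c i) x = (l : ZMod 3) • monomialMap σ c x := by
    intro l σ c x
    funext i
    simp only [monomialMap, Pi.smul_apply, smul_eq_mul, Units.val_mul, mul_assoc]
  let φ : HT × (ZMod 3)ˣ → {f : Equiv.Perm ArrayPt × (ArrayPt → (ZMod 3)ˣ) //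
      ∀ x ∈ ternaryGolayCode, monomialMap f.1 f.2 x ∈ ternaryGolayCode} := fun p =>
    ⟨(p.1.1, fun i => p.2 * c0 p.1 i), fun x hx => by
      show monomialMap p.1.1 (fun i => p.2 * c0 p.1 i) x ∈ ternaryGolayCode
      rw [hsc]
      exact Submodule.smul_mem _ _ (hc0 p.1 x hx)⟩
  have hφ : Function.Bijective φ := by
    constructor
    · rintro ⟨σ, l⟩ ⟨σ', l'⟩ h
      have h1 : σ.1 = σ'.1 := congrArg (fun f => f.1.1) h
      have h2 : σ = σ' := Subtype.ext h1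
      subst h2
      have h3 := congrFun (congrArg (fun f => f.1.2) h) (ofIx 0)
      have h4 : l = l' := mul_right_cancel h3
      rw [h4]
    · rintro ⟨⟨σ, c⟩, hc⟩
      let σ' : HT := ⟨σ, c, hc⟩
      let d : ArrayPt → (ZMod 3)ˣ := fun i => c i * (c0 σ' i)⁻¹
      have hd : ∀ y ∈ ternaryGolayCode, monomialMap 1 d y ∈ ternaryGolayCode := by
        intro y hy
        obtain ⟨x, hx, rfl⟩ := mono_surjT (hc0 σ') y hy
        have e : monomialMap 1 d (monomialMap σ (c0 σ') x) = monomialMap σ c x := by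
          funext i
          simp only [monomialMap, d, Units.val_mul, Equiv.Perm.one_symm, Equiv.Perm.one_apply]
          have h5 : ((c0 σ' i)⁻¹ : (ZMod 3)ˣ).1 * ((c0 σ' i : (ZMod 3)ˣ) : ZMod 3) = 1 := by
            rw [← Units.val_mul, inv_mul_cancel, Units.val_one]
          calc (c i : ZMod 3) * (((c0 σ' i)⁻¹ : (ZMod 3)ˣ) : ZMod 3) * (((c0 σ' i : (ZMod 3)ˣ) : ZMod 3) * x (σ.symm i))
              = (c i : ZMod 3) * ((((c0 σ' i)⁻¹ : (ZMod 3)ˣ) : ZMod 3) * ((c0 σ' i : (ZMod 3)ˣ) : ZMod 3)) * x (σ.symm i) := by ring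
            _ = (c i : ZMod 3) * x (σ.symm i) := by rw [h5, mul_one]
        rw [e]
        exact hc x hx
      have hsc2 := scalar_units d hd
      refine ⟨(σ', d (ofIx 0)), ?_⟩
      apply Subtype.ext
      apply Prod.ext
      · rfl
      · funext i
        show d (ofIx 0) * c0 σ' i = c i
        rw [hsc2 (ofIx 0) i]
        simp [d]
  rw [← Nat.card_congr (Equiv.ofBijective φ hφ), Nat.card_prod, card_HT]
  have h2 : Nat.card (ZMod 3)ˣ = 2 := by
    rw [Nat.card_eq_fintype_card]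
    rfl
  rw [h2]

end Cfsg.Agent.Lib.Ternary
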